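import Cfsg.Agent.H484.Pos
import Cfsg.Agent.OddOrderCharacters.IndRes

/-!
# Positivity for a union of blocks (S5770, S5935)

Let `B` be a union of `p`-blocks of `G`, `H` a subgroup of order prime to `p`, `lam` a character of `H` and `Φ` the
`B`-part of the induced character: `⟨χ, Φ⟩ = ⟨χ|H, lam⟩` for `χ ∈ B`, `= 0` for `χ ∉ B`.

* `part_vanish`: `Φ` vanishes off the `p`-regular elements;
* `pair_block`: the pairing of `Φ` with an irreducible Brauer character;
* `pos_block`: for every representation `σ` in characteristic `p`, `∑ bc(σ, g) conj (Φ g) = d |G|` with a natural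
  number `d`, and `d lam(1) ≤ dim σ` if `lam` is irreducible;
* `pos_block_inv`: the same with `Φ g⁻¹`.
-/

set_option autoImplicit false

namespace Cfsg.Agent.H484.Pos

open Cfsg IsLocalRing Module Cfsg.Agent.H657 Cfsg.Agent.H699.IBrLift Cfsg.Agent.H699.EqDeg
open Cfsg.Agent.H608.BlockRank Cfsg.Agent.H388.R27
open scoped ComplexConjugate

attribute [local instance] Above.isAlgClosed

variable {V : ValuationSubring ℂ} {G : Type*} [Group G] [Fintype G] {M : Ideal AlgInt} {p : ℕ}

theorem mem_charSpan_of_classInner' {B : Set (IrrCharacter G)} {θ : G → ℂ}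
    (hθ : IsClassFunction G θ) (h : ∀ ψ : IrrCharacter G, ψ ∉ B → classInner (ψ : G → ℂ) θ = 0) :
    θ ∈ charSpan B :=
  mem_charSpan_of_classInner hθ fun ψ hψ => by
    rw [← Characters.Core.classInner_conj_symm, h ψ hψ, map_zero]

/-- The part of `Λ` in a union of blocks vanishes off the `p`-regular elements if `Λ` does. -/
theorem part_vanish (hM : IsPModular p M) {B : Set (IrrCharacter G)} (hB : IsUnion M B) {Λ Φ : G → ℂ}
    (hΛ : IsClassFunction G Λ) (hΛ0 : ∀ g, ¬ IsPRegular p g → Λ g = 0) (hΦ : IsClassFunction G Φ)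
    (hin : ∀ χ ∈ B, classInner (χ : G → ℂ) Φ = classInner (χ : G → ℂ) Λ)
    (hout : ∀ χ : IrrCharacter G, χ ∉ B → classInner (χ : G → ℂ) Φ = 0) (g : G) (hg : ¬ IsPRegular p g) :
    Φ g = 0 := by
  classical
  have hMp := Blocks.Local.isPrime_of_isPModular hM
  have hBc : IsUnion M Bᶜ := fun a b hab ha hb => ha (hB b a (Blocks.Basic.sameBlock_symm hab) hb)
  have h1 : Φ ∈ charSpan B := mem_charSpan_of_classInner' hΦ hout
  have hcl : IsClassFunction G (Λ - Φ) := fun x y => by
    rw [Pi.sub_apply, Pi.sub_apply, hΛ, hΦ]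
  have h2 : Λ - Φ ∈ charSpan Bᶜ := by
    refine mem_charSpan_of_classInner' hcl fun ψ hψ => ?_
    rw [Characters.Core.classInner_sub_right, hin ψ (not_not.1 hψ), sub_self]
  have h3 : pReg p Φ ∈ charSpan B := map_pReg_le hM hB ⟨Φ, h1, rfl⟩
  have h4 : pReg p (Λ - Φ) ∈ charSpan Bᶜ := map_pReg_le hM hBc ⟨Λ - Φ, h2, rfl⟩
  have h5 : pReg p Λ = Λ := by
    funext x
    by_cases hx : IsPRegular p x
    · rw [pReg_of hx]
    · rw [pReg_of_not hx, hΛ0 x hx]
  have h6 : Φ - pReg p Φ = pReg p (Λ - Φ) - (Λ - Φ) := by
    rw [map_sub, h5]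
    abel
  have h7 : Φ - pReg p Φ = 0 := by
    have hd := charSpan_disjoint (G := G) (disjoint_compl_right (a := B))
    rw [Submodule.disjoint_def] at hd
    exact hd _ (Submodule.sub_mem _ h1 h3) (by rw [h6]; exact Submodule.sub_mem _ h4 h2)
  have h8 := congrFun h7 g
  rw [Pi.sub_apply, pReg_of_not hg, sub_zero] at h8
  exact h8

variable (H : Subgroup G) [Fintype H]

/-- The pairing of an irreducible Brauer character with the `B`-part of the character induced from a
`p'`-subgroup. -/
theorem pair_block (hM : IsPModular p M) (hV : Above M V) {B : Set (IrrCharacter G)} (hB : IsUnion M B)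
    (hH : ¬ p ∣ Nat.card H) {lam : H → ℂ} {Φ : G → ℂ} (hΦ : IsClassFunction G Φ)
    (hin : ∀ χ ∈ B, classInner (χ : G → ℂ) Φ = classInner (fun h : H => (χ : G → ℂ) h) lam)
    (hout : ∀ χ : IrrCharacter G, χ ∉ B → classInner (χ : G → ℂ) Φ = 0) (i : IBr V G) :
    ∑ g : G, phi p i g * conj (Φ g) = 0 ∨
      ∑ g : G, phi p i g * conj (Φ g) = Nat.card G * classInner (fun h : H => phi p i h) lam := by
  classical
  have : Fact p.Prime := ⟨hM.1⟩
  have : CharP (ResidueField V) p := hV.charP hM
  have hMp := Blocks.Local.isPrime_of_isPModular hM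
  have hBc : IsUnion M Bᶜ := fun a b hab ha hb => ha (hB b a (Blocks.Basic.sameBlock_symm hab) hb)
  have h0 : (Nat.card G : ℂ) ≠ 0 := Characters.Core.card_ne_zero_complex
  have hvan : ∀ g, ¬ IsPRegular p g → Φ g = 0 := by
    refine part_vanish hM hB (Λ := indFun H lam) (OddOrderCharacters.IndRes.isClassFunction_indFun H lam) ?_ hΦ ?_ hout
    · intro g hg
      refine OddOrderCharacters.IndRes.indFun_eq_zero_of_forall H lam fun x hx => hg ?_
      intro h1
      apply hH
      have h2 : orderOf (x⁻¹ * g * x) = orderOf g := by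
        have := (MulAut.conj x⁻¹).orderOf_eq g
        rw [MulAut.conj_apply, inv_inv] at this
        exact this
      rw [← h2] at h1
      exact h1.trans (Subgroup.orderOf_dvd_natCard H hx)
    · intro χ hχ
      rw [hin χ hχ, OddOrderCharacters.IndRes.classInner_indFun_right H lam
        (Characters.Core.isIrr_isClassFunction χ.2)]
      rfl
  -- the pairing of `pReg θ`
  have hpair : ∀ θ : G → ℂ, ∑ g : G, pReg p θ g * conj (Φ g) = Nat.card G * classInner θ Φ := by
    intro θ
    rw [classInner, mul_inv_cancel_left₀ h0]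
    refine Finset.sum_congr rfl fun g _ => ?_
    by_cases hg : IsPRegular p g
    · rw [pReg_of hg]
    · rw [pReg_of_not hg, hvan g hg]
      simp
  obtain ⟨χ', hχ'⟩ := exists_under hM hV i
  by_cases he : χ' ∈ B
  · right
    have h1 : phi p i ∈ (charSpan B).map (pReg p) := by
      rw [map_pReg_charSpan hM hV hB]
      exact Submodule.subset_span ⟨i, ⟨χ', he, hχ'⟩, rfl⟩
    obtain ⟨θ, hθ, h2⟩ := h1
    have h3 : classInner θ Φ = classInner (fun h : H => θ h) lam := by
      unfold charSpan at hθ
      clear h2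
      induction hθ using Submodule.span_induction with
      | mem θ h =>
        obtain ⟨χ, hχ, rfl⟩ := h
        exact hin χ hχ
      | zero =>
        have e : (fun h : H => (0 : G → ℂ) h) = 0 := rfl
        rw [e, Characters.Core.classInner_zero_left, Characters.Core.classInner_zero_left]
      | add θ θ' _ _ h h' =>
        have e : (fun h : H => (θ + θ') (h : G)) = (fun h : H => θ h) + (fun h : H => θ' h) := rfl
        rw [e, Characters.Core.classInner_add_left, Characters.Core.classInner_add_left, h, h']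
      | smul c θ _ h =>
        have e : (fun h : H => (c • θ) (h : G)) = c • (fun h : H => θ h) := rfl
        rw [e, Characters.Core.classInner_smul_left, Characters.Core.classInner_smul_left, h]
    rw [← h2, hpair, h3]
    congr 2
    funext h
    rw [pReg_of]
    intro hp
    apply hH
    have := orderOf_dvd_natCard h
    rw [← Subgroup.orderOf_coe] at this
    exact hp.trans this
  · left
    have h1 : phi p i ∈ (charSpan Bᶜ).map (pReg p) := by
      rw [map_pReg_charSpan hM hV hBc]
      exact Submodule.subset_span ⟨i, ⟨χ', he, hχ'⟩, rfl⟩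
    obtain ⟨θ, hθ, h2⟩ := h1
    have h3 : classInner θ Φ = 0 := by
      unfold charSpan at hθ
      clear h2
      induction hθ using Submodule.span_induction with
      | mem θ h =>
        obtain ⟨χ, hχ, rfl⟩ := h
        exact hout χ hχ
      | zero => rw [Characters.Core.classInner_zero_left]
      | add θ θ' _ _ h h' => rw [Characters.Core.classInner_add_left, h, h', add_zero]
      | smul c θ _ h => rw [Characters.Core.classInner_smul_left, h, mul_zero]
    rw [← h2, hpair, h3, mul_zero]

/-- **Positivity for a union of blocks.** -/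
theorem pos_block (hM : IsPModular p M) (hV : Above M V) {B : Set (IrrCharacter G)} (hB : IsUnion M B)
    (hH : ¬ p ∣ Nat.card H) {lam : H → ℂ} (hlam : IsCharacter H lam) {Φ : G → ℂ} (hΦ : IsClassFunction G Φ)
    (hin : ∀ χ ∈ B, classInner (χ : G → ℂ) Φ = classInner (fun h : H => (χ : G → ℂ) h) lam)
    (hout : ∀ χ : IrrCharacter G, χ ∉ B → classInner (χ : G → ℂ) Φ = 0) {W : Type*} [AddCommGroup W]
    [Module (ResidueField V) W] [FiniteDimensional (ResidueField V) W]
    (σ : Representation (ResidueField V) G W) :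
    ∃ d : ℕ, ∑ g : G, bc p σ g * conj (Φ g) = (d : ℂ) * Nat.card G ∧
      (IsIrrCharacter H lam → d * charDegree lam ≤ finrank (ResidueField V) W) := by
  classical
  have : Fact p.Prime := ⟨hM.1⟩
  have : CharP (ResidueField V) p := hV.charP hM
  have hvan : ∀ g, ¬ IsPRegular p g → Φ g = 0 := by
    refine part_vanish hM hB (Λ := indFun H lam) (OddOrderCharacters.IndRes.isClassFunction_indFun H lam) ?_ hΦ ?_ hout
    · intro g hg
      refine OddOrderCharacters.IndRes.indFun_eq_zero_of_forall H lam fun x hx => hg ?_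
      intro h1
      apply hH
      have h2 : orderOf (x⁻¹ * g * x) = orderOf g := by
        have := (MulAut.conj x⁻¹).orderOf_eq g
        rw [MulAut.conj_apply, inv_inv] at this
        exact this
      rw [← h2] at h1
      exact h1.trans (Subgroup.orderOf_dvd_natCard H hx)
    · intro χ hχ
      rw [hin χ hχ, OddOrderCharacters.IndRes.classInner_indFun_right H lam
        (Characters.Core.isIrr_isClassFunction χ.2)]
      rfl
  have hreg : ∀ h : H, IsPRegular p (h : G) := fun h hp => hH (by
    have := orderOf_dvd_natCard h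
    rw [← Subgroup.orderOf_coe] at this
    exact hp.trans this)
  obtain ⟨m, idx, h⟩ := exists_sum_bc (p := p) σ
  have h1 : ∑ g : G, bc p σ g * conj (Φ g) = ∑ l, ∑ g : G, phi p (idx l) g * conj (Φ g) := by
    rw [Finset.sum_comm]
    refine Finset.sum_congr rfl fun g _ => ?_
    rw [← Finset.sum_mul]
    by_cases hg : IsPRegular p g
    · rw [h g hg]
    · rw [hvan g hg]
      simp
  have h2 : ∀ l, ∃ e : ℕ, ∑ g : G, phi p (idx l) g * conj (Φ g) = (e : ℂ) * Nat.card G ∧
      (IsIrrCharacter H lam → e * charDegree lam ≤ (idx l).deg) := by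
    intro l
    rcases pair_block H hM hV hB hH hΦ hin hout (idx l) with h3 | h3
    · exact ⟨0, by rw [h3]; simp, fun _ => by simp⟩
    · have hbc : (fun h : H => phi p (idx l) (h : G)) = bc p ((idx l).rep.comp H.subtype) := by
        funext h
        rw [phi_of _ (hreg h)]
        rfl
      by_cases hirr : IsIrrCharacter H lam
      · obtain ⟨e, he1, he2⟩ := pos_mult hM hV ((idx l).rep.comp H.subtype) hirr
          (fun g hg => absurd (isPRegular_of_card hH g) hg)
        refine ⟨e, ?_, fun _ => by rw [finrank_fin_fun] at he1; exact he1⟩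
        rw [h3, hbc, classInner]
        have h4 : ∀ g : H, bc p ((idx l).rep.comp H.subtype) g * conj (lam g) =
            bc p ((idx l).rep.comp H.subtype) g * lam g⁻¹ := fun g => by
          rw [Characters.Core.isCharacter_apply_inv hlam]
        rw [Finset.sum_congr rfl fun g _ => h4 g, he2]
        have h5 : (Nat.card H : ℂ) ≠ 0 := Characters.Core.card_ne_zero_complex
        field_simp
      · obtain ⟨e, he⟩ := Characters.Core.classInner_isNat
          (isCharacter_bc hM hV hH ((idx l).rep.comp H.subtype)) hlam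
        refine ⟨e, ?_, fun h => absurd h hirr⟩
        rw [h3, hbc, he, mul_comm]
  choose e he1 he2 using h2
  refine ⟨∑ l, e l, ?_, fun hirr => ?_⟩
  · rw [h1, Finset.sum_congr rfl fun l _ => he1 l, ← Finset.sum_mul]
    push_cast
    rfl
  · rw [sum_deg σ h, Finset.sum_mul]
    exact Finset.sum_le_sum fun l _ => he2 l hirr

/-- The `B`-part `Φ` of an induced character is a character, so `Φ g⁻¹ = conj (Φ g)`. -/
theorem part_inv {B : Set (IrrCharacter G)} {lam : H → ℂ} (hlam : IsCharacter H lam) {Φ : G → ℂ}
    (hΦ : IsClassFunction G Φ)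
    (hin : ∀ χ ∈ B, classInner (χ : G → ℂ) Φ = classInner (fun h : H => (χ : G → ℂ) h) lam)
    (hout : ∀ χ : IrrCharacter G, χ ∉ B → classInner (χ : G → ℂ) Φ = 0) : IsCharacter G Φ := by
  classical
  have := Characters.Core.finite_irr (G := G)
  have : Fintype (IrrCharacter G) := Fintype.ofFinite _
  have h1 : ∀ χ : IrrCharacter G, ∃ n : ℕ, classInner Φ (χ : G → ℂ) = n := by
    intro χ
    rw [← Characters.Core.classInner_conj_symm]
    by_cases hχ : χ ∈ B
    · obtain ⟨n, hn⟩ := Characters.Core.classInner_isNat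
        (Characters.Core.isCharacter_comp H.subtype (Characters.Core.isIrr_isCharacter χ.2)) hlam
      refine ⟨n, ?_⟩
      rw [hin χ hχ]
      have e : classInner (fun h : H => (χ : G → ℂ) h) lam = n := hn
      rw [e]
      simp
    · exact ⟨0, by rw [hout χ hχ]; simp⟩
  choose n hn using h1
  rw [Characters.Core.classFunction_eq_sum hΦ]
  refine Characters.Core.isCharacter_sum _ fun χ _ => ?_
  rw [hn χ]
  have := Characters.Core.isCharacter_nsmul (n χ) (Characters.Core.isIrr_isCharacter χ.2)
  rwa [← Nat.cast_smul_eq_nsmul ℂ] at this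

/-- **Positivity for a union of blocks**, with `Φ g⁻¹`. -/
theorem pos_block_inv (hM : IsPModular p M) (hV : Above M V) {B : Set (IrrCharacter G)} (hB : IsUnion M B)
    (hH : ¬ p ∣ Nat.card H) {lam : H → ℂ} (hlam : IsCharacter H lam) {Φ : G → ℂ} (hΦ : IsClassFunction G Φ)
    (hin : ∀ χ ∈ B, classInner (χ : G → ℂ) Φ = classInner (fun h : H => (χ : G → ℂ) h) lam)
    (hout : ∀ χ : IrrCharacter G, χ ∉ B → classInner (χ : G → ℂ) Φ = 0) {W : Type*} [AddCommGroup W]
    [Module (ResidueField V) W] [FiniteDimensional (ResidueField V) W]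
    (σ : Representation (ResidueField V) G W) :
    ∃ d : ℕ, (d : ℂ) * Nat.card G = ∑ g : G, bc p σ g * Φ g⁻¹ ∧
      (IsIrrCharacter H lam → d * charDegree lam ≤ finrank (ResidueField V) W) := by
  obtain ⟨d, h1, h2⟩ := pos_block H hM hV hB hH hlam hΦ hin hout σ
  refine ⟨d, ?_, h2⟩
  rw [← h1]
  refine Finset.sum_congr rfl fun g _ => ?_
  rw [Characters.Core.isCharacter_apply_inv (part_inv H hlam hΦ hin hout)]

end Cfsg.Agent.H484.Pos
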